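import Cfsg.Agent.SL2Char.Table

/-!
Conjugacy classes and irreducible characters of `GL₂` over a finite field.
-/

set_option autoImplicit false
set_option linter.unusedSectionVars false

namespace CfsgLib.SL2Char.GL2

open scoped ComplexConjugate
open Matrix CfsgLib.CharBasics CfsgLib.IndFun CfsgLib.PrincipalSeries

variable {F : Type*} [Field F] [Fintype F] [DecidableEq F]

local notation "G2" => Matrix.GeneralLinearGroup (Fin 2) F

/-- The element with the given entries. -/
noncomputable def mkG (a b c d : F) (h : a * d - b * c ≠ 0) : G2 :=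
  Matrix.GeneralLinearGroup.mkOfDetNeZero !![a, b; c, d] (by rw [det_fin_two_of]; exact h)

@[simp] theorem mkG_coe (a b c d : F) (h : a * d - b * c ≠ 0) :
    (mkG a b c d h : Matrix (Fin 2) (Fin 2) F) = !![a, b; c, d] := rfl

theorem extG {g h : G2} (h00 : g.1 0 0 = h.1 0 0) (h01 : g.1 0 1 = h.1 0 1) (h10 : g.1 1 0 = h.1 1 0)
    (h11 : g.1 1 1 = h.1 1 1) : g = h := by
  apply Units.ext
  ext i j
  fin_cases i <;> fin_cases j <;> assumption

theorem mulG (g h : G2) (i j : Fin 2) : (g * h).1 i j = g.1 i 0 * h.1 0 j + g.1 i 1 * h.1 1 j := by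
  rw [Units.val_mul, Matrix.mul_apply, Fin.sum_univ_two]

theorem detG_ne (g : G2) : g.1 0 0 * g.1 1 1 - g.1 0 1 * g.1 1 0 ≠ 0 := by
  rw [← det_fin_two]; exact ((Matrix.isUnit_iff_isUnit_det _).mp g.isUnit).ne_zero

theorem invariants_of_isConj {g h : G2} (hc : IsConj g h) : g.1.trace = h.1.trace ∧ g.1.det = h.1.det := by
  obtain ⟨x, rfl⟩ := isConj_iff.mp hc
  constructor
  · rw [Units.val_mul, Units.val_mul, Matrix.trace_mul_comm, ← Matrix.mul_assoc, ← Units.val_mul, inv_mul_cancel,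
      Units.val_one, Matrix.one_mul]
  · rw [Units.val_mul, Units.val_mul, Matrix.det_mul, Matrix.det_mul, mul_right_comm, ← Matrix.det_mul,
      ← Units.val_mul, mul_inv_cancel, Units.val_one, Matrix.det_one, one_mul]

/-- `GL₂(q)` has `q² - 1` classes. -/
theorem card_conjClasses : Nat.card (ConjClasses G2) = Fintype.card F ^ 2 - 1 := by
  classical
  let sc : Fˣ → G2 := fun s => mkG (s : F) 0 0 (s : F) (by simp)
  let cp : F × Fˣ → G2 := fun x => mkG 0 (-(x.2 : F)) 1 x.1 (by simp)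
  let φ : Fˣ ⊕ (F × Fˣ) → ConjClasses G2 := fun x => ConjClasses.mk (x.elim sc cp)
  have hsc : ∀ (s : Fˣ) (h : G2), IsConj (sc s) h → h = sc s := by
    intro s h hc
    obtain ⟨x, rfl⟩ := isConj_iff.mp hc
    rw [mul_inv_eq_iff_eq_mul]
    apply extG <;> simp [sc, mulG, mul_comm]
  have hφ : Function.Bijective φ := by
    constructor
    · rintro (s | x) (s' | x') h <;> have hc := ConjClasses.mk_eq_mk_iff_isConj.mp h <;>
        simp only [Sum.elim_inl, Sum.elim_inr] at hc
      · have := hsc s _ hc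
        exact congrArg Sum.inl (Units.ext (by simpa [sc] using (congrArg (fun g : G2 => g.1 0 0) this).symm))
      · have := congrArg (fun g : G2 => g.1 1 0) (hsc s _ hc)
        simp [sc, cp] at this
      · have := congrArg (fun g : G2 => g.1 1 0) (hsc s' _ hc.symm)
        simp [sc, cp] at this
      · obtain ⟨h1, h2⟩ := invariants_of_isConj hc
        simp [cp, trace_fin_two, det_fin_two] at h1 h2
        exact congrArg Sum.inr (Prod.ext h1 (Units.ext h2))
    · intro q
      obtain ⟨g, rfl⟩ := ConjClasses.exists_rep q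
      have hd := detG_ne g
      by_cases hs : g.1 0 1 = 0 ∧ g.1 1 0 = 0 ∧ g.1 0 0 = g.1 1 1
      · obtain ⟨h1, h2, h3⟩ := hs
        have h0 : g.1 0 0 ≠ 0 := fun e => hd (by rw [e, h1]; ring)
        refine ⟨Sum.inl (Units.mk0 _ h0), congrArg ConjClasses.mk ?_⟩
        simp only [Sum.elim_inl, sc]
        apply extG <;> simp [h1, h2, h3]
      · obtain ⟨x, y, hxy⟩ : ∃ x y : F,
            x * (g.1 1 0 * x + g.1 1 1 * y) - (g.1 0 0 * x + g.1 0 1 * y) * y ≠ 0 := by
          by_cases h10 : g.1 1 0 = 0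
          · by_cases h01 : g.1 0 1 = 0
            · refine ⟨1, 1, fun e => hs ⟨h01, h10, ?_⟩⟩
              rw [h10, h01] at e
              linear_combination -e
            · refine ⟨0, 1, fun e => h01 ?_⟩
              linear_combination -e
          · refine ⟨1, 0, fun e => h10 ?_⟩
            linear_combination e
        refine ⟨Sum.inr (g.1 0 0 + g.1 1 1, Units.mk0 _ hd), ConjClasses.mk_eq_mk_iff_isConj.mpr
          (isConj_iff.mpr ⟨mkG x (g.1 0 0 * x + g.1 0 1 * y) y (g.1 1 0 * x + g.1 1 1 * y) hxy, ?_⟩)⟩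
        rw [mul_inv_eq_iff_eq_mul]
        simp only [Sum.elim_inr, cp]
        apply extG <;> simp [mulG] <;> ring
  rw [← Nat.card_eq_of_bijective φ hφ, Nat.card_sum, Nat.card_prod, Nat.card_eq_fintype_card,
    Nat.card_eq_fintype_card, Fintype.card_units]
  have h1 := Fintype.one_lt_card (α := F)
  obtain ⟨m, hm⟩ : ∃ m, Fintype.card F = m + 1 := ⟨Fintype.card F - 1, by omega⟩
  rw [hm, Nat.add_sub_cancel]
  have : (m + 1) ^ 2 = m + (m + 1) * m + 1 := by ring
  omega

/-- The principal series. -/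
noncomputable def RG (α β : MulChar F ℂ) : G2 → ℂ := Cfsg.indFun (Cfsg.upperTriangularGL 2 F) (borelChar α β)

theorem isCharacter_RG (α β : MulChar F ℂ) : Cfsg.IsCharacter G2 (RG α β) :=
  isCharacter_indFun _ (isCharacter_borelChar α β)

/-- Coset representatives. -/
noncomputable def repG : Option F → G2
  | none => 1
  | some c => mkG c (-1) 1 0 (by simp)

theorem inv_repG (c : F) : ((repG (some c) : G2)⁻¹).1 = !![0, 1; -1, c] := by
  have h : (repG (some c) : G2)⁻¹ = mkG 0 1 (-1) c (by simp) := inv_eq_of_mul_eq_one_right (by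
    apply extG <;> simp [repG, mulG])
  rw [h]; rfl

theorem repG_bijective :
    Function.Bijective fun o : Option F => (QuotientGroup.mk (repG o) : G2 ⧸ Cfsg.upperTriangularGL 2 F) := by
  have hD : ∀ u v : G2,
      (QuotientGroup.mk u : G2 ⧸ Cfsg.upperTriangularGL 2 F) = QuotientGroup.mk v ↔
        u.1 0 0 * v.1 1 0 - u.1 1 0 * v.1 0 0 = 0 := by
    intro u v
    rw [QuotientGroup.eq, mem_borel_iff]
    have hd := detG_ne u
    have e : u * (u⁻¹ * v) = v := mul_inv_cancel_left u v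
    have e0 := congrArg (fun g : G2 => g.1 0 0) e
    have e1 := congrArg (fun g : G2 => g.1 1 0) e
    simp only [mulG u (u⁻¹ * v)] at e0 e1
    constructor
    · intro h
      rw [h] at e0 e1
      linear_combination u.1 1 0 * e0 - u.1 0 0 * e1
    · intro h
      refine (mul_eq_zero.mp (?_ : _ * ((u⁻¹ * v).1 1 0) = 0)).resolve_left hd
      linear_combination h + u.1 0 0 * e1 - u.1 1 0 * e0
  constructor
  · intro o o' h
    have h' := (hD _ _).mp h
    rcases o with _ | c <;> rcases o' with _ | c'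
    · rfl
    · exact absurd h' (by simp [repG])
    · exact absurd h' (by simp [repG])
    · simp [repG] at h'; exact congrArg some (by linear_combination h')
  · intro q
    obtain ⟨u, rfl⟩ := QuotientGroup.mk_surjective q
    by_cases hc : u.1 1 0 = 0
    · exact ⟨none, (hD _ _).mpr (by simp [repG, hc])⟩
    · exact ⟨some (u.1 0 0 / u.1 1 0), (hD _ _).mpr (by simp [repG]; field_simp; ring)⟩

theorem RG_apply (α β : MulChar F ℂ) (g : G2) :
    RG α β g = (if g.1 1 0 = 0 then α (g.1 0 0) * β (g.1 1 1) else 0) +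
      ∑ c : F, if g.1 1 0 * c ^ 2 + (g.1 1 1 - g.1 0 0) * c - g.1 0 1 = 0
        then α (g.1 1 0 * c + g.1 1 1) * β (g.1 0 0 - g.1 1 0 * c) else 0 := by
  classical
  rw [RG, indFun_eq_sum_reps (Cfsg.upperTriangularGL 2 F) (borelChar α β) (isClassFunction_borelChar α β) repG
    repG_bijective, Fintype.sum_option]
  congr 1
  · simp only [repG, inv_one, one_mul, mul_one]
    by_cases h : g.1 1 0 = 0
    · rw [extendByZero_mem _ ((mem_borel_iff g).2 h), if_pos h]; rfl
    · rw [extendByZero_not_mem _ (fun hh => h ((mem_borel_iff g).1 hh)), if_neg h]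
  · refine Finset.sum_congr rfl fun c _ => ?_
    have e10 : ((repG (some c))⁻¹ * g * repG (some c)).1 1 0 =
        g.1 1 0 * c ^ 2 + (g.1 1 1 - g.1 0 0) * c - g.1 0 1 := by
      simp only [mulG, inv_repG]
      simp [repG]
      ring
    have e00 : ((repG (some c))⁻¹ * g * repG (some c)).1 0 0 = g.1 1 0 * c + g.1 1 1 := by
      simp only [mulG, inv_repG]
      simp [repG]
    have e11 : ((repG (some c))⁻¹ * g * repG (some c)).1 1 1 = g.1 0 0 - g.1 1 0 * c := by
      simp only [mulG, inv_repG]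
      simp [repG]
      ring
    by_cases h : g.1 1 0 * c ^ 2 + (g.1 1 1 - g.1 0 0) * c - g.1 0 1 = 0
    · rw [extendByZero_mem _ ((mem_borel_iff _).2 (e10.trans h)), if_pos h, borelChar]
      exact congrArg₂ (· * ·) (congrArg α e00) (congrArg β e11)
    · rw [extendByZero_not_mem _ (fun hh => h (e10 ▸ (mem_borel_iff _).1 hh)), if_neg h]

theorem RG_one (α β : MulChar F ℂ) : RG α β (1 : G2) = (Fintype.card F : ℂ) + 1 := by
  rw [RG_apply]
  simp
  ring

theorem RG_unip (α β : MulChar F ℂ) {u : G2} (hu : (u : Matrix (Fin 2) (Fin 2) F) = !![1, 1; 0, 1]) :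
    RG α β u = 1 := by
  rw [RG_apply, hu]
  simp

theorem RG_diag (α β : MulChar F ℂ) {g : G2} (h10 : g.1 1 0 = 0) (h01 : g.1 0 1 = 0) (hne : g.1 0 0 ≠ g.1 1 1) :
    RG α β g = α (g.1 0 0) * β (g.1 1 1) + α (g.1 1 1) * β (g.1 0 0) := by
  have hd : g.1 1 1 - g.1 0 0 ≠ 0 := sub_ne_zero.2 (Ne.symm hne)
  rw [RG_apply, if_pos h10, Finset.sum_eq_single (0 : F)]
  · simp [h10, h01]
  · intro c _ hc
    refine if_neg fun h => hc ?_
    rw [h10, h01] at h
    exact (mul_eq_zero.mp (by linear_combination h : (g.1 1 1 - g.1 0 0) * c = 0)).resolve_left hd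
  · simp

theorem RG_elliptic (α β : MulChar F ℂ) {g : G2}
    (h : ∀ (c : F) (v : Fin 2 → F), v ≠ 0 → (g : Matrix (Fin 2) (Fin 2) F).mulVec v ≠ c • v) : RG α β g = 0 := by
  rw [RG_apply, if_neg, zero_add, Finset.sum_eq_zero fun c _ => if_neg ?_]
  · intro hc
    refine h (g.1 1 0 * c + g.1 1 1) ![c, 1] (fun e => one_ne_zero (α := F) (by simpa using congrFun e 1)) ?_
    ext i
    fin_cases i <;> simp [Matrix.mulVec, dotProduct, Fin.sum_univ_two]
    linear_combination -hc
  · intro h10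
    refine h (g.1 0 0) ![1, 0] (fun e => one_ne_zero (α := F) (by simpa using congrFun e 0)) ?_
    ext i
    fin_cases i <;> simp [Matrix.mulVec, dotProduct, Fin.sum_univ_two, h10]

/-- The upper triangular element with parameters. -/
noncomputable def borG (p r : Fˣ) (c : F) : G2 := mkG (p : F) c 0 (r : F) (by simp)

/-- The sum over the upper unitriangular elements. -/
noncomputable def uSumG (f : G2 → ℂ) : ℂ := ∑ c : F, f (borG 1 1 c)

theorem inner_RG {f : G2 → ℂ} (hf : Cfsg.IsClassFunction G2 f) (α β : MulChar F ℂ) :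
    Cfsg.classInner f (RG α β) = (((Fintype.card F : ℂ) - 1) * ((Fintype.card F : ℂ) - 1) * (Fintype.card F : ℂ))⁻¹ *
      ∑ p : Fˣ, ∑ r : Fˣ, ∑ c : F, f (borG p r c) * conj (α (p : F) * β (r : F)) := by
  classical
  haveI := Fintype.ofFinite (Cfsg.upperTriangularGL 2 F)
  rw [RG, classInner_indFun' _ _ hf, classInner_eq, ← borelEquiv.symm.sum_comp, Fintype.sum_prod_type,
    Fintype.sum_prod_type, card_borel, Nat.card_eq_fintype_card, Fintype.card_units, Nat.card_eq_fintype_card,
    Nat.cast_mul, Nat.cast_mul, Nat.cast_sub Fintype.card_pos, Nat.cast_one]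
  congr 1

theorem sum_inner_RG [Fintype (MulChar F ℂ)] {f : G2 → ℂ} (hf : Cfsg.IsClassFunction G2 f) :
    ∑ α : MulChar F ℂ, ∑ β : MulChar F ℂ, Cfsg.classInner f (RG α β) = (Fintype.card F : ℂ)⁻¹ * uSumG f := by
  classical
  have hsum : ∀ p : Fˣ, ∑ α : MulChar F ℂ, conj (α (p : F)) = if p = 1 then ((Fintype.card F : ℂ) - 1) else 0 := by
    intro p
    haveI : Fintype (Fˣ →* ℂˣ) := Fintype.ofEquiv _ MulChar.equivToUnitHom
    rw [← map_sum, Fintype.sum_equiv MulChar.equivToUnitHom (fun α : MulChar F ℂ => α (p : F))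
      (fun ψ : Fˣ →* ℂˣ => ((ψ p : ℂˣ) : ℂ)) (fun α => (MulChar.coe_equivToUnitHom α p).symm),
      CfsgLib.Blocks.FpfExc.sum_homs (fun a b => mul_comm a b) p]
    split_ifs with h
    · rw [map_natCast, Nat.card_eq_fintype_card, Fintype.card_units, Nat.cast_sub Fintype.card_pos, Nat.cast_one]
    · rw [map_zero]
  have hterm : ∀ α β : MulChar F ℂ, Cfsg.classInner f (RG α β) =
      (((Fintype.card F : ℂ) - 1) * ((Fintype.card F : ℂ) - 1) * (Fintype.card F : ℂ))⁻¹ *
        ∑ p : Fˣ, ∑ r : Fˣ, (∑ c : F, f (borG p r c)) * conj (α (p : F)) * conj (β (r : F)) := fun α β => by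
    rw [inner_RG hf]
    simp only [Finset.sum_mul, map_mul, mul_assoc]
  have hswap : ∀ (p r : Fˣ), ∑ α : MulChar F ℂ, ∑ β : MulChar F ℂ,
      (∑ c : F, f (borG p r c)) * conj (α (p : F)) * conj (β (r : F)) =
      (∑ c : F, f (borG p r c)) * (if p = 1 then ((Fintype.card F : ℂ) - 1) else 0) *
        (if r = 1 then ((Fintype.card F : ℂ) - 1) else 0) := by
    intro p r
    simp only [← Finset.mul_sum, hsum, ← Finset.sum_mul]
  have hre : ∀ g : MulChar F ℂ → MulChar F ℂ → Fˣ → Fˣ → ℂ,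
      ∑ α : MulChar F ℂ, ∑ β : MulChar F ℂ, ∑ p : Fˣ, ∑ r : Fˣ, g α β p r =
      ∑ p : Fˣ, ∑ r : Fˣ, ∑ α : MulChar F ℂ, ∑ β : MulChar F ℂ, g α β p r := fun g => by
    rw [Finset.sum_congr rfl fun α _ => Finset.sum_comm, Finset.sum_comm]
    refine Finset.sum_congr rfl fun p _ => ?_
    rw [Finset.sum_congr rfl fun α _ => Finset.sum_comm, Finset.sum_comm]
  simp only [hterm, ← Finset.mul_sum]
  rw [hre]
  simp only [hswap]
  rw [Finset.sum_eq_single (1 : Fˣ) (fun p _ hp => by simp [hp]) (by simp),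
    Finset.sum_eq_single (1 : Fˣ) (fun p _ hp => by simp [hp]) (by simp), if_pos rfl]
  have h1 : (Fintype.card F : ℂ) - 1 ≠ 0 :=
    sub_ne_zero.2 (by exact_mod_cast (Fintype.one_lt_card (α := F)).ne')
  rw [uSumG]
  field_simp

/-- The unipotent homomorphism. -/
noncomputable def uG : Multiplicative F →* G2 :=
  Matrix.SpecialLinearGroup.toGL.comp CfsgLib.SL2.upperHom

theorem uG_apply (c : Multiplicative F) : (uG c : G2) = borG 1 1 c.toAdd := by
  apply extG <;> simp [uG, borG, CfsgLib.SL2.upperHom, Matrix.SpecialLinearGroup.toGL]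

/-- Coset sums vanish when the unipotent sum does. -/
theorem sum_borG_eq_zero {χ : G2 → ℂ} (h : Cfsg.IsCharacter G2 χ) (h0 : uSumG χ = 0) (p r : Fˣ) :
    ∑ c : F, χ (borG p r c) = 0 := by
  have hu : ∑ a : Multiplicative F, χ (uG a) = 0 := by
    rw [← h0, uSumG]
    exact Fintype.sum_equiv Multiplicative.toAdd _ _ fun c => by rw [uG_apply]
  have hz := (sum_hom_image h (uG (F := F))).2 hu (borG p r 0)
  rw [← hz]
  exact Fintype.sum_equiv ((Equiv.mulLeft₀ ((p : F)⁻¹) (inv_ne_zero p.ne_zero)).trans Multiplicative.ofAdd) _ _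
    fun c => by
      congr 1
      rw [uG_apply]
      apply extG <;> simp [borG, mulG]

theorem inner_RG_eq_zero {χ : G2 → ℂ} (h : Cfsg.IsCharacter G2 χ) (h0 : uSumG χ = 0) (α β : MulChar F ℂ) :
    Cfsg.classInner χ (RG α β) = 0 := by
  rw [inner_RG (isClassFunction h), Finset.sum_eq_zero fun p _ => Finset.sum_eq_zero fun r _ => ?_, mul_zero]
  rw [← Finset.sum_mul, sum_borG_eq_zero h h0, zero_mul]

/-- A character without unipotent invariants vanishes at the regular diagonal elements. -/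
theorem diag_eq_zero {χ : G2 → ℂ} (h : Cfsg.IsCharacter G2 χ) (h0 : uSumG χ = 0) {g : G2} (h01 : g.1 0 1 = 0)
    (h10 : g.1 1 0 = 0) (hne : g.1 0 0 ≠ g.1 1 1) : χ g = 0 := by
  have hd := detG_ne g
  rw [h01, zero_mul, sub_zero] at hd
  set p : Fˣ := Units.mk0 _ (left_ne_zero_of_mul hd)
  set r : Fˣ := Units.mk0 _ (right_ne_zero_of_mul hd)
  have hz := sum_borG_eq_zero h h0 p r
  have hconst : ∀ c : F, χ (borG p r c) = χ g := by
    intro c
    refine apply_isConj h (isConj_iff.mpr ⟨mkG 1 (c / (g.1 0 0 - g.1 1 1)) 0 1 (by simp), ?_⟩)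
    rw [mul_inv_eq_iff_eq_mul]
    have hs : g.1 0 0 - g.1 1 1 ≠ 0 := sub_ne_zero.2 hne
    apply extG <;> simp [borG, mulG, p, r, h01, h10]
    field_simp
    ring
  simp only [hconst, Finset.sum_const, Finset.card_univ, nsmul_eq_mul] at hz
  exact (mul_eq_zero.mp hz).resolve_left (Nat.cast_ne_zero.2 Fintype.card_ne_zero)

/-- A linear character. -/
noncomputable def detChar (α : MulChar F ℂ) : G2 → ℂ := fun g => α g.1.det

theorem mul_conj_mulChar (α : MulChar F ℂ) {x : F} (hx : x ≠ 0) : α x * conj (α x) = 1 := by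
  rw [show conj (α x) = α⁻¹ x from by rw [← MulChar.star_eq_inv, MulChar.star_apply, starRingEnd_apply],
    ← MulChar.mul_apply, mul_inv_cancel, MulChar.one_apply (IsUnit.mk0 x hx)]

theorem isIrr_detChar (α : MulChar F ℂ) : Cfsg.IsIrrCharacter G2 (detChar α) := by
  classical
  let f : G2 →* ℂ :=
    { toFun := detChar α
      map_one' := by simp [detChar]
      map_mul' := fun x y => by simp [detChar, Matrix.det_mul] }
  refine isIrr_of_norm_one (CfsgLib.Clifford.isCharacter_of_hom f) ?_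
  have e : ∀ g : G2, detChar α g * conj (detChar α g) = 1 := fun g =>
    mul_conj_mulChar α ((Matrix.isUnit_iff_isUnit_det _).mp g.isUnit).ne_zero
  rw [classInner_eq, Finset.sum_congr rfl (fun g _ => e g), Finset.sum_const, Finset.card_univ,
    ← Nat.card_eq_fintype_card, nsmul_eq_mul, mul_one, inv_mul_cancel₀ (Nat.cast_ne_zero.2 Nat.card_pos.ne')]

theorem inner_det_RG (α α' β' : MulChar F ℂ) :
    Cfsg.classInner (detChar α) (RG α' β') = if α = α' ∧ α = β' then 1 else 0 := by
  classical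
  rw [inner_RG (isClassFunction (isCharacter_of_irr (isIrr_detChar α)))]
  have e : ∀ p r : Fˣ, ∀ c : F, detChar α (borG p r c) * conj (α' (p : F) * β' (r : F)) =
      (α (p : F) * conj (α' (p : F))) * (α (r : F) * conj (β' (r : F))) := fun p r c => by
    simp [detChar, borG, det_fin_two, map_mul]
    ring
  simp only [e, Finset.sum_const, Finset.card_univ, nsmul_eq_mul, ← Finset.mul_sum, ← Finset.sum_mul,
    sum_units_mulChar]
  have h1 : (Fintype.card F : ℂ) - 1 ≠ 0 :=
    sub_ne_zero.2 (by exact_mod_cast (Fintype.one_lt_card (α := F)).ne')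
  have h0 : (Fintype.card F : ℂ) ≠ 0 := Nat.cast_ne_zero.2 Fintype.card_ne_zero
  rw [Nat.card_eq_fintype_card, Fintype.card_units, Nat.cast_sub Fintype.card_pos, Nat.cast_one]
  by_cases ha : α = α' <;> by_cases hb : α = β' <;> simp [ha, hb] <;> field_simp

/-- The twisted Steinberg characters. -/
noncomputable def StG (α : MulChar F ℂ) : G2 → ℂ := RG α α - detChar α

theorem isIrr_StG (α : MulChar F ℂ) : Cfsg.IsIrrCharacter G2 (StG α) := by
  classical
  have hL := isIrr_detChar α
  have h1 := inner_det_RG α α α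
  rw [if_pos ⟨rfl, rfl⟩] at h1
  have h1' : Cfsg.classInner (RG α α) (detChar α) = 1 := by
    rw [classInner_comm (detChar α) (RG α α), h1, map_one]
  refine isIrr_of_int_norm_one (fun g x => ?_) (fun χ => ?_) ?_ (d := Fintype.card F) ?_
  · simp only [StG, Pi.sub_apply, isClassFunction (isCharacter_RG α α) g x,
      isClassFunction (isCharacter_of_irr hL) g x]
  · obtain ⟨m, hm⟩ := classInner_character_nat (isCharacter_RG α α) χ
    refine ⟨(m : ℤ) - if (χ : G2 → ℂ) = detChar α then 1 else 0, ?_⟩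
    rw [StG, classInner_sub_left, hm]
    split_ifs with h
    · rw [h, classInner_self hL]; push_cast; ring
    · rw [classInner_ne hL χ.2 (Ne.symm h)]; push_cast; ring
  · rw [StG, classInner_sub_left, classInner_sub_right, classInner_sub_right, h1', h1, classInner_self hL, RG,
      inner_principal, if_pos ⟨rfl, rfl⟩]
    ring
  · simp [StG, RG_one, detChar]

theorem isIrr_RG {α β : MulChar F ℂ} (h : α ≠ β) : Cfsg.IsIrrCharacter G2 (RG α β) := by
  classical
  refine isIrr_of_norm_one (isCharacter_RG α β) ?_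
  rw [RG, inner_principal, if_pos ⟨rfl, rfl⟩, if_neg (fun e => h e.1), add_zero]

theorem RG_eq_iff {α β α' β' : MulChar F ℂ} (h : α ≠ β) (h' : α' ≠ β') :
    RG α β = RG α' β' ↔ (α = α' ∧ β = β') ∨ (α = β' ∧ β = α') := by
  classical
  constructor
  · intro e
    by_contra hc
    rw [not_or] at hc
    have hi := inner_principal α β α' β'
    rw [if_neg hc.1, if_neg hc.2, add_zero, ← RG, ← RG, ← e, classInner_self (isIrr_RG h)] at hi
    exact one_ne_zero hi
  · intro hor
    by_contra hne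
    have hi := inner_principal α β α' β'
    rw [← RG, ← RG, classInner_ne (isIrr_RG h) (isIrr_RG h') hne] at hi
    rcases hor with e | e <;> rw [if_pos e] at hi <;> split_ifs at hi <;> norm_num at hi

local notation "IrrG" => Cfsg.IrrCharacter G2

theorem card_GL2 : (Nat.card G2 : ℤ) = ((Fintype.card F : ℤ) ^ 2 - 1) * ((Fintype.card F : ℤ) ^ 2 - Fintype.card F) := by
  rw [Matrix.card_GL_field, Fin.prod_univ_two]
  simp only [Fin.val_zero, Fin.val_one, pow_zero, pow_one]
  rw [Nat.cast_mul, Nat.cast_sub (Nat.one_le_pow _ _ Fintype.card_pos),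
    Nat.cast_sub (Nat.le_self_pow two_ne_zero _)]
  push_cast
  rfl

/-- The table of `GL₂`. -/
theorem classification : ∃ (A S P N : Finset IrrG),
    (∀ χ : IrrG, χ ∈ A ∨ χ ∈ S ∨ χ ∈ P ∨ χ ∈ N) ∧
    (∀ χ ∈ A, (∃ α, (χ : G2 → ℂ) = detChar α) ∧ (χ : G2 → ℂ) 1 = ((1 : ℕ) : ℂ)) ∧
    (∀ χ ∈ S, (∃ α, (χ : G2 → ℂ) = StG α) ∧ (χ : G2 → ℂ) 1 = ((Fintype.card F : ℕ) : ℂ)) ∧
    (∀ χ ∈ P, (∃ α β, α ≠ β ∧ (χ : G2 → ℂ) = RG α β) ∧ (χ : G2 → ℂ) 1 = ((Fintype.card F + 1 : ℕ) : ℂ)) ∧
    (∀ χ ∈ N, uSumG (χ : G2 → ℂ) = 0 ∧ (χ : G2 → ℂ) 1 = ((Fintype.card F - 1 : ℕ) : ℂ)) ∧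
    A.card = Fintype.card F - 1 ∧ S.card = Fintype.card F - 1 ∧
    P.card = (Fintype.card F - 1) * (Fintype.card F - 2) / 2 ∧
    N.card = Fintype.card F * (Fintype.card F - 1) / 2 := by
  classical
  haveI := finite_mulChar (F := F)
  haveI : Fintype (MulChar F ℂ) := Fintype.ofFinite _
  haveI : Fintype IrrG := @Fintype.ofFinite _ finite_irrCharacter
  have hcard : Fintype.card (MulChar F ℂ) = Fintype.card F - 1 := by
    rw [← Nat.card_eq_fintype_card, card_mulChar]
  have hq := Fintype.one_lt_card (α := F)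
  let fA : MulChar F ℂ → IrrG := fun α => ⟨detChar α, isIrr_detChar α⟩
  let fS : MulChar F ℂ → IrrG := fun α => ⟨StG α, isIrr_StG α⟩
  let fP : {x : MulChar F ℂ × MulChar F ℂ // x.1 ≠ x.2} → IrrG := fun x => ⟨RG x.1.1 x.1.2, isIrr_RG x.2⟩
  have hAinj : Function.Injective fA := fun α α' e => by
    have h1 := inner_det_RG α α' α'
    rw [show detChar α = detChar α' from congrArg Subtype.val e, inner_det_RG, if_pos ⟨rfl, rfl⟩] at h1
    by_contra hne
    rw [if_neg fun h => hne h.1] at h1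
    exact one_ne_zero h1
  have hSinj : Function.Injective fS := fun α α' e => by
    by_contra hne
    have hi := inner_principal α α α' α'
    rw [if_neg fun h => hne h.1, add_zero, ← RG, ← RG] at hi
    have hs : ∀ β : MulChar F ℂ, RG β β = StG β + detChar β := fun β => (sub_add_cancel _ _).symm
    rw [hs α, hs α', classInner_add_left, classInner_comm (StG α' + detChar α') (StG α),
      classInner_comm (StG α' + detChar α') (detChar α), classInner_add_left, classInner_add_left,
      show StG α' = StG α from (congrArg Subtype.val e).symm, classInner_self (isIrr_StG α)] at hi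
    obtain ⟨a, ha⟩ := classInner_characters_nat (isCharacter_of_irr (isIrr_detChar α'))
      (isCharacter_of_irr (isIrr_StG α))
    obtain ⟨b, hb⟩ := classInner_characters_nat (isCharacter_of_irr (isIrr_StG α))
      (isCharacter_of_irr (isIrr_detChar α))
    obtain ⟨c, hc⟩ := classInner_characters_nat (isCharacter_of_irr (isIrr_detChar α'))
      (isCharacter_of_irr (isIrr_detChar α))
    rw [ha, hb, hc, map_add, map_add, map_one, map_natCast, map_natCast, map_natCast] at hi
    have : 1 + a + (b + c) = 0 := by exact_mod_cast hi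
    omega
  have hPcard : 2 * (Finset.univ.image fP).card = (Fintype.card F - 1) * (Fintype.card F - 2) := by
    have hfib : ∀ b ∈ Finset.univ.image fP, (Finset.univ.filter fun a => fP a = b).card = 2 := by
      intro b hb
      obtain ⟨a, -, rfl⟩ := Finset.mem_image.1 hb
      have hne : a ≠ ⟨(a.1.2, a.1.1), a.2.symm⟩ := fun e => a.2 (congrArg (fun x => x.1.1) e)
      rw [show (Finset.univ.filter fun x => fP x = fP a) = {a, ⟨(a.1.2, a.1.1), a.2.symm⟩} from Finset.ext fun x => by
        rw [Finset.mem_filter, Finset.mem_insert, Finset.mem_singleton]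
        simp only [Finset.mem_univ, true_and, fP, Subtype.ext_iff, RG_eq_iff x.2 a.2, Prod.ext_iff],
        Finset.card_pair hne]
    have h := Finset.card_eq_sum_card_image fP Finset.univ
    rw [Finset.sum_congr rfl hfib, Finset.sum_const, smul_eq_mul, Finset.card_univ, Fintype.card_subtype_compl] at h
    have hdiag : Fintype.card {x : MulChar F ℂ × MulChar F ℂ // x.1 = x.2} = Fintype.card (MulChar F ℂ) :=
      Fintype.card_congr ⟨fun x => x.1.1, fun a => ⟨(a, a), rfl⟩,
        fun ⟨⟨a, b⟩, (h : a = b)⟩ => by subst h; rfl, fun a => rfl⟩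
    rw [hdiag, Fintype.card_prod, hcard] at h
    obtain ⟨m, hm⟩ : ∃ m, Fintype.card F = m + 2 := ⟨Fintype.card F - 2, by omega⟩
    rw [hm] at h ⊢
    simp only [Nat.add_sub_cancel, show m + 2 - 1 = m + 1 by omega] at h ⊢
    have : (m + 1) * (m + 1) = (m + 1) * m + (m + 1) := by ring
    omega
  set A := Finset.univ.image fA with hA
  set S := Finset.univ.image fS with hS
  set P := Finset.univ.image fP with hP
  have dA : ∀ χ ∈ A, (∃ α, (χ : G2 → ℂ) = detChar α) ∧ (χ : G2 → ℂ) 1 = ((1 : ℕ) : ℂ) := by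
    intro χ hχ
    obtain ⟨α, -, rfl⟩ := Finset.mem_image.1 hχ
    exact ⟨⟨α, rfl⟩, by simp [fA, detChar]⟩
  have dS : ∀ χ ∈ S, (∃ α, (χ : G2 → ℂ) = StG α) ∧ (χ : G2 → ℂ) 1 = ((Fintype.card F : ℕ) : ℂ) := by
    intro χ hχ
    obtain ⟨α, -, rfl⟩ := Finset.mem_image.1 hχ
    exact ⟨⟨α, rfl⟩, by simp [fS, StG, RG_one, detChar]⟩
  have dP : ∀ χ ∈ P, (∃ α β, α ≠ β ∧ (χ : G2 → ℂ) = RG α β) ∧ (χ : G2 → ℂ) 1 = ((Fintype.card F + 1 : ℕ) : ℂ) := by
    intro χ hχ
    obtain ⟨x, -, rfl⟩ := Finset.mem_image.1 hχ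
    exact ⟨⟨_, _, x.2, rfl⟩, by simp [fP, RG_one]⟩
  have degd : ∀ (χ : IrrG) (n : ℕ), (χ : G2 → ℂ) 1 = (n : ℂ) → Cfsg.charDegree (χ : G2 → ℂ) = n := fun χ n h => by
    rw [apply_one (isCharacter_of_irr χ.2)] at h
    exact_mod_cast h
  have hAS : Disjoint A S := Finset.disjoint_left.2 fun χ h h' => by
    have := degd χ _ (dA χ h).2
    have := degd χ _ (dS χ h').2
    omega
  have hASP : Disjoint (A ∪ S) P := Finset.disjoint_left.2 fun χ h h' => by
    have := degd χ _ (dP χ h').2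
    rcases Finset.mem_union.1 h with h | h
    · have := degd χ _ (dA χ h).2; omega
    · have := degd χ _ (dS χ h).2; omega
  set L := A ∪ S ∪ P with hL
  have hcusp : ∀ χ : IrrG, χ ∉ L → uSumG (χ : G2 → ℂ) = 0 := by
    intro χ hχ
    by_contra hne
    have hz := sum_inner_RG (isClassFunction (isCharacter_of_irr χ.2))
    rw [Finset.sum_eq_zero fun α _ => Finset.sum_eq_zero fun β _ => ?_] at hz
    · exact hne ((mul_eq_zero.1 hz.symm).resolve_left (inv_ne_zero (Nat.cast_ne_zero.2 Fintype.card_ne_zero)))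
    have hnot : ∀ ψ : IrrG, ψ ∈ L → Cfsg.classInner (χ : G2 → ℂ) (ψ : G2 → ℂ) = 0 := fun ψ hψ =>
      classInner_ne χ.2 ψ.2 fun e => hχ (Subtype.ext e ▸ hψ)
    by_cases hab : α = β
    · subst hab
      have hs : RG α α = fun g => StG α g + detChar α g := funext fun g => by simp [StG]
      rw [hs, show Cfsg.classInner (χ : G2 → ℂ) (fun g => StG α g + detChar α g) =
          Cfsg.classInner (χ : G2 → ℂ) (StG α) + Cfsg.classInner (χ : G2 → ℂ) (detChar α) by
        simp only [classInner_eq, map_add, mul_add, Finset.sum_add_distrib],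
        hnot (fS α) (Finset.mem_union_left _ (Finset.mem_union_right _ (Finset.mem_image_of_mem _ (Finset.mem_univ _)))),
        hnot (fA α) (Finset.mem_union_left _ (Finset.mem_union_left _ (Finset.mem_image_of_mem _ (Finset.mem_univ _)))),
        add_zero]
    · exact hnot (fP ⟨(α, β), hab⟩) (Finset.mem_union_right _ (Finset.mem_image_of_mem _ (Finset.mem_univ _)))
  have hLc : L.card = (Fintype.card F - 1) + (Fintype.card F - 1) + P.card := by
    rw [hL, Finset.card_union_of_disjoint hASP, Finset.card_union_of_disjoint hAS, hA, hS,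
      Finset.card_image_of_injective _ hAinj, Finset.card_image_of_injective _ hSinj, Finset.card_univ, hcard]
  have hNc : 2 * Lᶜ.card = Fintype.card F * (Fintype.card F - 1) := by
    rw [Finset.card_compl, ← Nat.card_eq_fintype_card, card_irr, card_conjClasses, hLc]
    obtain ⟨m, hm⟩ : ∃ m, Fintype.card F = m + 2 := ⟨Fintype.card F - 2, by omega⟩
    rw [hm] at hPcard ⊢
    simp only [show m + 2 - 1 = m + 1 by omega, show m + 2 - 2 = m by omega] at hPcard ⊢
    have e1 : (m + 2) ^ 2 = (m + 1) * m + 3 * m + 4 := by ring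
    have e2 : (m + 2) * (m + 1) = (m + 1) * m + 2 * (m + 1) := by ring
    omega
  have hdvd : ∀ χ ∈ Lᶜ, (Fintype.card F - 1) ∣ Cfsg.charDegree (χ : G2 → ℂ) := by
    intro χ hχ
    have h0 := hcusp χ (Finset.mem_compl.1 hχ)
    have hc := isCharacter_of_irr χ.2
    have hcls : ∀ c ∈ Finset.univ.erase (0 : F), (χ : G2 → ℂ) (borG 1 1 c) = (χ : G2 → ℂ) (borG 1 1 1) := by
      intro c hc0
      refine (apply_isConj hc (isConj_iff.mpr ⟨mkG c 0 0 1 (by simpa using Finset.ne_of_mem_erase hc0), ?_⟩)).symm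
      rw [mul_inv_eq_iff_eq_mul]
      apply extG <;> simp [borG, mulG]
    rw [uSumG, ← Finset.add_sum_erase _ _ (Finset.mem_univ (0 : F)), Finset.sum_congr rfl hcls, Finset.sum_const,
      Finset.card_erase_of_mem (Finset.mem_univ _), Finset.card_univ, nsmul_eq_mul,
      show borG (1 : Fˣ) 1 (0 : F) = (1 : G2) by apply extG <;> simp [borG], apply_one hc] at h0
    refine nat_dvd_of_isIntegral _ _ (by omega) ?_
    have hne : ((Fintype.card F - 1 : ℕ) : ℂ) ≠ 0 := Nat.cast_ne_zero.2 (by omega)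
    rw [show (Cfsg.charDegree (χ : G2 → ℂ) : ℂ) / ((Fintype.card F - 1 : ℕ) : ℂ) = -(χ : G2 → ℂ) (borG 1 1 1) by
      rw [div_eq_iff hne]; linear_combination h0]
    exact (isIntegral_apply hc _).neg
  have hge : ∀ χ ∈ Lᶜ, ((Fintype.card F - 1 : ℕ) : ℤ) ^ 2 ≤ (Cfsg.charDegree (χ : G2 → ℂ) : ℤ) ^ 2 := by
    intro χ hχ
    have := Nat.le_of_dvd (charDegree_pos χ.2) (hdvd χ hχ)
    exact pow_le_pow_left₀ (Int.natCast_nonneg _) (by exact_mod_cast this) 2
  have hsumsq : ∑ χ ∈ Lᶜ, ((Fintype.card F - 1 : ℕ) : ℤ) ^ 2 =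
      ∑ χ ∈ Lᶜ, (Cfsg.charDegree (χ : G2 → ℂ) : ℤ) ^ 2 := by
    have htot : ∑ χ : IrrG, (Cfsg.charDegree (χ : G2 → ℂ) : ℤ) ^ 2 = (Nat.card G2 : ℤ) := by
      rw [← sum_sq_degree]; push_cast; rfl
    rw [card_GL2, ← Finset.sum_add_sum_compl L, hL, Finset.sum_union hASP, Finset.sum_union hAS,
      Finset.sum_congr rfl (fun χ hχ => by rw [degd χ _ (dA χ hχ).2]) (s₁ := A),
      Finset.sum_congr rfl (fun χ hχ => by rw [degd χ _ (dS χ hχ).2]) (s₁ := S),
      Finset.sum_congr rfl (fun χ hχ => by rw [degd χ _ (dP χ hχ).2]) (s₁ := P), Finset.sum_const,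
      Finset.sum_const, Finset.sum_const, ← hL, nsmul_eq_mul, nsmul_eq_mul, nsmul_eq_mul, hA, hS,
      Finset.card_image_of_injective _ hAinj, Finset.card_image_of_injective _ hSinj, Finset.card_univ, hcard] at htot
    have e1 : (2 : ℤ) * (P.card : ℤ) = ((Fintype.card F : ℤ) - 1) * ((Fintype.card F : ℤ) - 2) := by
      have := congrArg (fun n : ℕ => (n : ℤ)) hPcard
      push_cast [Nat.cast_sub (show 1 ≤ Fintype.card F by omega), Nat.cast_sub (show 2 ≤ Fintype.card F by omega)] at this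
      exact this
    have e2 : (2 : ℤ) * (Lᶜ.card : ℤ) = (Fintype.card F : ℤ) * ((Fintype.card F : ℤ) - 1) := by
      have := congrArg (fun n : ℕ => (n : ℤ)) hNc
      push_cast [Nat.cast_sub (show 1 ≤ Fintype.card F by omega)] at this
      exact this
    rw [Finset.sum_const, nsmul_eq_mul]
    push_cast [Nat.cast_sub (show 1 ≤ Fintype.card F by omega)] at htot ⊢
    refine mul_left_cancel₀ (two_ne_zero (α := ℤ)) ?_
    linear_combination ((Fintype.card F : ℤ) - 1) ^ 2 * e2 + ((Fintype.card F : ℤ) + 1) ^ 2 * e1 - 2 * htot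
  have hdeg : ∀ χ ∈ Lᶜ, Cfsg.charDegree (χ : G2 → ℂ) = Fintype.card F - 1 := by
    intro χ hχ
    have h := (Finset.sum_eq_sum_iff_of_le hge).1 hsumsq χ hχ
    exact_mod_cast ((pow_left_inj₀ (Int.natCast_nonneg _) (Int.natCast_nonneg _) two_ne_zero).1 h).symm
  refine ⟨A, S, P, Lᶜ, fun χ => ?_, dA, dS, dP, fun χ hχ => ⟨hcusp χ (Finset.mem_compl.1 hχ), ?_⟩, ?_, ?_, ?_, ?_⟩
  · by_cases h : χ ∈ L
    · rcases Finset.mem_union.1 h with h | h
      · rcases Finset.mem_union.1 h with h | h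
        · exact Or.inl h
        · exact Or.inr (Or.inl h)
      · exact Or.inr (Or.inr (Or.inl h))
    · exact Or.inr (Or.inr (Or.inr (Finset.mem_compl.2 h)))
  · rw [apply_one (isCharacter_of_irr χ.2), hdeg χ hχ]
  · rw [hA, Finset.card_image_of_injective _ hAinj, Finset.card_univ, hcard]
  · rw [hS, Finset.card_image_of_injective _ hSinj, Finset.card_univ, hcard]
  · omega
  · omega

end CfsgLib.SL2Char.GL2
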