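import Cfsg.Agent.SL2Char.Degrees

/-!
The values of the four exceptional characters of `SL₂`, `q` odd, at a unipotent element.
-/

set_option autoImplicit false
set_option linter.unusedSectionVars false

namespace CfsgLib.SL2Char

open scoped ComplexConjugate
open Matrix CfsgLib.SL2 CfsgLib.CharBasics CfsgLib.PrincipalSeries

variable {F : Type*} [Field F] [Fintype F] [DecidableEq F]

/-- Parseval for two restrictions whose multiplicities add up to one. -/
theorem parseval01 {G A : Type*} [Group G] [Finite G] [Group A] [Fintype A] (hA : ∀ x y : A, x * y = y * x)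
    {f f' : G → ℂ} (hf : Cfsg.IsCharacter G f) (hf' : Cfsg.IsCharacter G f') (ι : A →* G) {m₀ : ℕ} {w : ℂ}
    (hm : m₀ ≤ 1) (hu : ∑ x : A, f (ι x) = (Nat.card A : ℂ) * m₀) (hsum : ∀ x : A, x ≠ 1 → f (ι x) + f' (ι x) = w)
    (h1 : f (ι 1) + f' (ι 1) - w = (Nat.card A : ℂ)) :
    ∑ x : A, f (ι x) * conj (f (ι x)) = (Nat.card A : ℂ) * f (ι 1) := by
  classical
  haveI : Finite (A →* ℂˣ) := CfsgLib.Blocks.FpfExc.finite_homs hA
  haveI : Fintype (A →* ℂˣ) := Fintype.ofFinite _
  have hA0 : (Nat.card A : ℂ) ≠ 0 := Nat.cast_ne_zero.2 Nat.card_pos.ne'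
  have hnat : ∀ g : G → ℂ, Cfsg.IsCharacter G g → ∀ ψ : A →* ℂˣ,
      ∃ n : ℕ, (Nat.card A : ℂ)⁻¹ * ∑ x : A, g (ι x) * ((ψ x⁻¹ : ℂˣ) : ℂ) = n := by
    intro g hg ψ
    obtain ⟨n, hn⟩ := classInner_characters_nat (isCharacter_comp hg ι)
      (CfsgLib.Clifford.isCharacter_of_hom ((Units.coeHom ℂ).comp ψ))
    refine ⟨n, ?_⟩
    rw [← hn, classInner_eq, Finset.mul_sum, Finset.mul_sum]
    refine Finset.sum_congr rfl fun x _ => ?_
    rw [← CfsgLib.Blocks.FpfExc.conj_hom]
    rfl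
  choose n hn using hnat f hf
  choose n' hn' using hnat f' hf'
  have hpair : ∀ ψ : A →* ℂˣ, ψ ≠ 1 → n ψ + n' ψ = 1 := by
    intro ψ hψ
    have hz : ∑ x : A, ((ψ x⁻¹ : ℂˣ) : ℂ) = 0 := by
      rw [← Fintype.sum_equiv (Equiv.inv _) (fun y => ((ψ y : ℂˣ) : ℂ)) _ (fun y => by simp),
        CfsgLib.Blocks.FpfExc.sum_hom, if_neg hψ]
    have hterm : ∀ x : A, (f (ι x) + f' (ι x)) * ((ψ x⁻¹ : ℂˣ) : ℂ) =
        w * ((ψ x⁻¹ : ℂˣ) : ℂ) + if x = 1 then (Nat.card A : ℂ) else 0 := by
      intro x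
      split_ifs with hx
      · subst hx; rw [inv_one, map_one ψ, Units.val_one]; linear_combination h1
      · rw [hsum x hx, add_zero]
    have e : (n ψ : ℂ) + (n' ψ : ℂ) = 1 := by
      rw [← hn, ← hn', ← mul_add, ← Finset.sum_add_distrib,
        Finset.sum_congr rfl (g := fun x => (f (ι x) + f' (ι x)) * ((ψ x⁻¹ : ℂˣ) : ℂ)) (fun x _ => (add_mul _ _ _).symm),
        Finset.sum_congr rfl fun x _ => hterm x, Finset.sum_add_distrib, ← Finset.mul_sum, hz, mul_zero, zero_add,
        Finset.sum_ite_eq', if_pos (Finset.mem_univ _), inv_mul_cancel₀ hA0]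
    exact_mod_cast e
  have h01 : ∀ ψ, n ψ ≤ 1 := by
    intro ψ
    by_cases hψ : ψ = 1
    · subst hψ
      have h := hn 1
      simp only [MonoidHom.one_apply, Units.val_one, mul_one, hu] at h
      rw [← mul_assoc, inv_mul_cancel₀ hA0, one_mul] at h
      have : m₀ = n 1 := by exact_mod_cast h
      omega
    · have := hpair ψ hψ; omega
  have hfour := CfsgLib.Blocks.FpfExc.fourier hA (fun x => f (ι x))
  simp only [hn] at hfour
  have hinner : ∀ ψ : A →* ℂˣ, ∑ x : A, ((ψ x : ℂˣ) : ℂ) * conj (f (ι x)) = (Nat.card A : ℂ) * (n ψ : ℂ) := by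
    intro ψ
    have e : (Nat.card A : ℂ) * (n ψ : ℂ) = ∑ x : A, f (ι x) * ((ψ x⁻¹ : ℂˣ) : ℂ) := by
      rw [← hn ψ, mul_inv_cancel_left₀ hA0]
    have ec : conj ((Nat.card A : ℂ) * (n ψ : ℂ)) = (Nat.card A : ℂ) * (n ψ : ℂ) := by
      rw [map_mul, map_natCast, map_natCast]
    rw [← ec, e, map_sum]
    refine Finset.sum_congr rfl fun x _ => ?_
    rw [map_mul, CfsgLib.Blocks.FpfExc.conj_hom, inv_inv, mul_comm]
  calc ∑ x : A, f (ι x) * conj (f (ι x))
      = ∑ x : A, ∑ ψ : A →* ℂˣ, (n ψ : ℂ) * (((ψ x : ℂˣ) : ℂ) * conj (f (ι x))) := by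
        refine Finset.sum_congr rfl fun x _ => ?_
        nth_rw 1 [hfour x]
        rw [Finset.sum_mul]
        exact Finset.sum_congr rfl fun ψ _ => by ring
    _ = ∑ ψ : A →* ℂˣ, (Nat.card A : ℂ) * (n ψ : ℂ) := by
        rw [Finset.sum_comm]
        refine Finset.sum_congr rfl fun ψ _ => ?_
        rw [← Finset.mul_sum, hinner ψ]
        rcases (show n ψ = 0 ∨ n ψ = 1 by have := h01 ψ; omega) with h | h <;> simp [h]
    _ = (Nat.card A : ℂ) * f (ι 1) := by
        rw [← Finset.mul_sum]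
        congr 1
        rw [hfour 1]
        simp

set_option maxHeartbeats 1000000 in
/-- Parseval on the unipotent subgroup for a swapped pair, and the resulting quadratic Gauss value. -/
theorem gauss_pair {χ χ' : SpecialLinearGroup (Fin 2) F → ℂ}
    (hc : Cfsg.IsCharacter (SpecialLinearGroup (Fin 2) F) χ) (hc' : Cfsg.IsCharacter (SpecialLinearGroup (Fin 2) F) χ')
    {e : Fˣ} (he : ¬IsSquare (e : F)) (hsw : ∀ g, χ (tau e g) = χ' g) {k d m₀ : ℕ} (hk : Fintype.card F = 2 * k + 1)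
    (hd : χ 1 = (d : ℂ)) (hm : m₀ ≤ 1) (hu : uSum χ = (Fintype.card F : ℂ) * m₀) (v : ℤ) (hv : v = 1 ∨ v = -1)
    (hsum : ∀ c : F, c ≠ 0 → χ (upperU c) + χ' (upperU c) = (v : ℂ))
    (hdv : 2 * (d : ℤ) - v = 2 * (k : ℤ) + 1) :
    (2 * χ (upperU 1) - (v : ℂ)) ^ 2 = (-1 : ℂ) ^ k * (Fintype.card F : ℂ) ∧
      (2 * χ' (upperU 1) - (v : ℂ)) ^ 2 = (-1 : ℂ) ^ k * (Fintype.card F : ℂ) := by
  classical
  set a : ℂ := χ (upperU 1) with ha
  set b : ℂ := χ' (upperU 1) with hb
  have hab : a + b = (v : ℂ) := hsum 1 one_ne_zero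
  have hd' : χ' 1 = (d : ℂ) := by rw [← hsw 1, map_one, hd]
  have hbe : χ (upperU (e : F)) = b := by rw [hb, ← hsw (upperU 1), tau_upperU, mul_one]
  have hae : χ' (upperU (e : F)) = a := by
    rw [← hsw, tau_upperU, ha]
    refine (apply_isConj hc ((isConj_upperU_iff one_ne_zero (mul_ne_zero e.ne_zero e.ne_zero)).mpr ⟨(e : F), by ring⟩)).symm
  have hcls : ∀ c : F, c ≠ 0 → (χ (upperU c) = a ∧ χ' (upperU c) = b) ∨ (χ (upperU c) = b ∧ χ' (upperU c) = a) := by
    intro c hc0
    rcases isSquare_or_mul he c hc0 with h | h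
    · exact Or.inl ⟨(apply_isConj hc h).symm, (apply_isConj hc' h).symm⟩
    · exact Or.inr ⟨(apply_isConj hc h).symm.trans hbe, (apply_isConj hc' h).symm.trans hae⟩
  -- multiplicities on the unipotent subgroup
  have hcomm : ∀ x y : Multiplicative F, x * y = y * x := fun x y => mul_comm x y
  have hA : (Nat.card (Multiplicative F) : ℂ) = (Fintype.card F : ℂ) := by
    rw [Nat.card_eq_fintype_card, Fintype.card_multiplicative]
  have hq0 : (Fintype.card F : ℂ) ≠ 0 := Nat.cast_ne_zero.2 Fintype.card_ne_zero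
  have hpars : ∑ x : Multiplicative F, χ (upperHom x) * conj (χ (upperHom x)) = (Fintype.card F : ℂ) * (d : ℂ) := by
    have h := parseval01 hcomm hc hc' (upperHom (F := F)) (w := (v : ℂ)) hm ?_ (fun x hx => hsum _ fun h => hx ?_) ?_
    · rw [h, hA, map_one, hd]
    · rw [hA, ← hu, uSum]
      exact Fintype.sum_equiv Multiplicative.toAdd _ _ fun x => rfl
    · rwa [toAdd_eq_zero] at h
    · have e2 : ((2 * (d : ℤ) - v : ℤ) : ℂ) = ((2 * (k : ℤ) + 1 : ℤ) : ℂ) := by rw [hdv]
      push_cast at e2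
      rw [map_one, hd, hd', hA, hk]
      push_cast
      linear_combination e2
  have hP : ∑ c : F, χ (upperU c) * conj (χ (upperU c)) = (Fintype.card F : ℂ) * (d : ℂ) := by
    rw [← hpars]; exact Fintype.sum_equiv Multiplicative.ofAdd _ _ fun c => rfl
  have hP' : ∑ c : F, χ' (upperU c) * conj (χ' (upperU c)) = (Fintype.card F : ℂ) * (d : ℂ) := by
    rw [← hP]
    exact Fintype.sum_equiv (Equiv.mulLeft₀ (e : F) e.ne_zero) _ _ fun c => by
      rw [← hsw (upperU c), tau_upperU]; rfl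
  have hS : (k : ℂ) * (a * conj a + b * conj b) = (Fintype.card F : ℂ) * (d : ℂ) - (d : ℂ) ^ 2 := by
    have h := congrArg₂ (· + ·) hP hP'
    simp only [← Finset.sum_add_distrib] at h
    rw [← Finset.add_sum_erase _ _ (Finset.mem_univ (0 : F)), upperU_zero, hd, hd', map_natCast,
      Finset.sum_congr rfl (g := fun _ => a * conj a + b * conj b) (fun c hc0 => by
        rcases hcls c (Finset.ne_of_mem_erase hc0) with ⟨e1, e2⟩ | ⟨e1, e2⟩ <;> rw [e1, e2]
        exact add_comm _ _), Finset.sum_const, Finset.card_erase_of_mem (Finset.mem_univ _), Finset.card_univ,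
      hk, nsmul_eq_mul, Nat.add_sub_cancel] at h
    rw [hk]
    push_cast at h ⊢
    linear_combination h / 2
  have hk0 : k ≠ 0 := by have := Fintype.one_lt_card (α := F); omega
  have hS' : a * conj a + b * conj b = (k : ℂ) + 1 := by
    apply mul_left_cancel₀ (Nat.cast_ne_zero.2 hk0 : (k : ℂ) ≠ 0)
    rw [hS, hk]
    rcases hv with rfl | rfl
    · have : d = k + 1 := by omega
      rw [this]; push_cast; ring
    · have : d = k := by omega
      rw [this]; push_cast; ring
  have hv2 : (v : ℂ) ^ 2 = 1 := by rcases hv with rfl | rfl <;> norm_num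
  have hinv : (upperU (1 : F))⁻¹ = upperU (-1) := (upperU_neg 1).symm
  have main : (a - b) ^ 2 = (-1 : ℂ) ^ k * (Fintype.card F : ℂ) := by
    rcases Nat.even_or_odd k with hev | hod
    · obtain ⟨w, hw⟩ : IsSquare (-1 : F) := FiniteField.isSquare_neg_one_iff.mpr (by
        rw [hk]; rcases hev with ⟨j, rfl⟩; omega)
      have hconj : IsConj (upperU (1 : F)) (upperU (-1)) :=
        (isConj_upperU_iff one_ne_zero (neg_ne_zero.2 one_ne_zero)).mpr ⟨w, by rw [hw]; ring⟩
      have ca : conj a = a := by rw [ha, ← apply_inv hc, hinv, ← apply_isConj hc hconj]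
      have cb : conj b = b := by rw [hb, ← apply_inv hc', hinv, ← apply_isConj hc' hconj]
      rw [ca, cb] at hS'
      rw [hev.neg_one_pow, one_mul, hk]
      push_cast
      linear_combination 2 * hS' - (a + b + (v : ℂ)) * hab - hv2
    · have hns : ¬IsSquare (-1 : F) := fun h => by
        have := FiniteField.isSquare_neg_one_iff.mp h
        rw [hk] at this
        rcases hod with ⟨j, rfl⟩; omega
      have ca : conj a = b := by
        rw [ha, ← apply_inv hc, hinv]
        rcases isSquare_or_mul he (-1 : F) (neg_ne_zero.2 one_ne_zero) with h | h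
        · obtain ⟨w, hw⟩ := (isConj_upperU_iff one_ne_zero (neg_ne_zero.2 one_ne_zero)).mp h
          exact absurd ⟨w, by rw [hw]; ring⟩ hns
        · rw [← apply_isConj hc h, hbe]
      have cb : conj b = a := by rw [← ca, Complex.conj_conj]
      rw [ca, cb] at hS'
      rw [hod.neg_one_pow, hk]
      push_cast
      linear_combination -2 * hS' + (a + b + (v : ℂ)) * hab + hv2
  constructor
  · rw [← main]
    congr 1
    linear_combination hab
  · rw [← main, show (a - b) ^ 2 = (b - a) ^ 2 by ring]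
    congr 1
    linear_combination hab

end CfsgLib.SL2Char
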