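import Cfsg.Agent.SL2Char.Degrees
import Cfsg.Agent.CharBasics.ModP
import Cfsg.Agent.Blocks.DefectGroup
import Cfsg.Agent.SL2.PSL

/-!
The `p`-blocks of `SL₂(q)`, `q` a power of the odd prime `p`.
-/

set_option autoImplicit false
set_option linter.unusedSectionVars false

namespace CfsgLib.SL2Char

open Cfsg Matrix CfsgLib.CharBasics CfsgLib.SL2 CfsgLib.Blocks

variable {F : Type*} [Field F] [Fintype F] [DecidableEq F] {p : ℕ} [Fact p.Prime] [CharP F p] {M : Ideal AlgInt}

local notation "SL" => SpecialLinearGroup (Fin 2) F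

theorem card_eq_pow : Fintype.card F = p ^ (Nat.card SL).factorization p := by
  have hp : p.Prime := Fact.out
  obtain ⟨n, -, hn⟩ := FiniteField.card F p
  rw [card_SL2, Nat.factorization_mul Fintype.card_ne_zero
    (Nat.sub_pos_of_lt (Nat.one_lt_pow two_ne_zero Fintype.one_lt_card)).ne', Finsupp.add_apply,
    Nat.factorization_eq_zero_of_not_dvd (n := Fintype.card F ^ 2 - 1), add_zero, hn, hp.factorization_pow,
    Finsupp.single_eq_same]
  intro h
  have h1 : p ∣ Fintype.card F ^ 2 := dvd_pow (hn ▸ dvd_pow_self p n.ne_zero) two_ne_zero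
  have h2 := Nat.dvd_sub h1 h
  rw [Nat.sub_sub_self (Nat.one_le_pow _ _ Fintype.card_pos)] at h2
  exact hp.not_dvd_one h2

theorem tr_of_pow_prime {x : SL} (h : x ^ p = 1) : tr x = 2 := by
  have hx : (x.1) ^ p = 1 := by
    have := congrArg (fun y : SL => y.1) h
    simpa using this
  have hn : IsNilpotent (x.1 - 1) := ⟨p, by
    rw [sub_pow_char_of_commute p (Commute.one_right _), hx, one_pow, sub_self]⟩
  have h2 := (Matrix.isNilpotent_trace_of_isNilpotent hn).eq_zero
  simp [Matrix.trace_fin_two] at h2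
  rw [tr]
  linear_combination h2

theorem pow_p_of_tr {g : SL} (h : tr g = 2) : g ^ p = 1 := by
  obtain ⟨s, hs⟩ := exists_isConj_upperU h
  obtain ⟨x, rfl⟩ := isConj_iff.mp hs
  rw [conj_pow, upperU_nsmul, CharP.cast_eq_zero, zero_mul, upperU_zero, mul_one, mul_inv_cancel]

/-- Non-central elements whose centralizer has order divisible by `p` have trace `±2`. -/
theorem tr_sq_of_dvd {g : SL} (hg : g ∉ Subgroup.center SL)
    (hd : p ∣ Nat.card (Subgroup.centralizer ({g} : Set SL))) : tr g ^ 2 = 4 := by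
  obtain ⟨⟨x, hx⟩, hxo⟩ := exists_prime_orderOf_dvd_card' p hd
  rw [Subgroup.orderOf_mk] at hxo
  have hxp : x ^ p = 1 := by rw [← hxo]; exact pow_orderOf_eq_one x
  have htr := tr_of_pow_prime hxp
  have hcomm := Subgroup.mem_centralizer_singleton_iff.1 hx
  have hxc : x ∉ Subgroup.center SL := by
    intro hc
    rcases (CfsgLib.SL2.mem_center_iff x).mp hc with rfl | rfl
    · rw [orderOf_one] at hxo; exact (Fact.out : p.Prime).ne_one hxo.symm
    · rw [tr_neg, tr_one] at htr
      have h4 : (4 : F) = 0 := by linear_combination -htr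
      have : ((4 : ℕ) : F) = 0 := by exact_mod_cast h4
      have h4' : p ∣ 4 := (CharP.cast_eq_zero_iff F p 4).1 this
      have h2p : p ∣ 2 := (Fact.out : p.Prime).dvd_of_dvd_pow (show p ∣ 2 ^ 2 from h4')
      rw [(Nat.prime_dvd_prime_iff_eq Fact.out Nat.prime_two).1 h2p] at hxo
      have h1 : (1 : F) + 1 = 0 := by
        have := CharP.cast_eq_zero F p
        rw [(Nat.prime_dvd_prime_iff_eq Fact.out Nat.prime_two).1 h2p] at this
        push_cast at this
        linear_combination this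
      have : (-1 : SL) = 1 := by
        apply ext2 <;> simp [neg_eq_iff_add_eq_zero, h1]
      rw [this, orderOf_one] at hxo
      omega
  obtain ⟨⟨a, b⟩, hab⟩ := exists_linComb hxc hcomm.symm
  have hdet := det_linComb x (a, b)
  rw [← hab, g.2, htr] at hdet
  have e00 := congrFun (congrFun hab 0) 0
  have e11 := congrFun (congrFun hab 1) 1
  simp [linComb] at e00 e11
  rw [tr] at htr ⊢
  rw [e00, e11]
  linear_combination (-4 : F) * hdet + b * (4 * a + b * (x.1 0 0 + x.1 1 1 + 2)) * htr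

theorem upperU_pow_p (s : F) : (upperU s : SL) ^ p = 1 := by
  rw [upperU_nsmul, CharP.cast_eq_zero, zero_mul, upperU_zero]

theorem St_upperU {s : F} (hs : s ≠ 0) : (St : SL → ℂ) (upperU s) = 0 := by
  show Rf (1 : MulChar F ℂ) (upperU s : SL) - 1 = 0
  rw [Rf_unipotent (1 : MulChar F ℂ) (upperU s) (by simp [upperU]) (by simp [upperU]) (by simpa [upperU] using hs)]
  simp [upperU]

variable (hM : IsPModular p M)
include hM

/-- Characters of degree divisible by `p` have degree `q`. -/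
theorem not_dvd_of_ne {χ : IrrCharacter SL} (h : (χ : SL → ℂ) 1 ≠ (Fintype.card F : ℂ)) :
    ¬ p ∣ charDegree (χ : SL → ℂ) := by
  intro hd
  have hp : p.Prime := hM.1
  obtain ⟨n, -, hn⟩ := FiniteField.card F p
  have hpq : p ∣ Fintype.card F := hn ▸ dvd_pow_self p n.ne_zero
  obtain ⟨C, T⟩ := exists_torus (F := F)
  have hdeg : ∀ d : ℕ, (χ : SL → ℂ) 1 = (d : ℂ) → charDegree (χ : SL → ℂ) = d := fun d e => by
    rw [apply_one (isCharacter_of_irr χ.2)] at e; exact_mod_cast e
  have key : ∀ a b : ℕ, p ∣ a → p ∣ b → a = b + 1 → False := fun a b h1 h2 e =>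
    hp.not_dvd_one ((Nat.dvd_add_right h2).1 (e ▸ h1))
  have hq := Fintype.one_lt_card (α := F)
  by_cases hodd : Odd (Fintype.card F)
  · obtain ⟨O⟩ := nonempty_oddTable hodd T
    obtain ⟨k, hk⟩ := hodd
    rcases O.cases χ with ⟨-, e⟩ | ⟨-, e⟩ | ⟨-, e⟩ | ⟨-, e⟩ | ⟨-, e⟩ | ⟨-, e⟩
    · rw [hdeg _ e] at hd; exact hp.not_dvd_one hd
    · exact h e
    · rw [hdeg _ e] at hd; exact key _ _ hd hpq rfl
    · rw [hdeg _ e] at hd; exact key _ _ hpq hd (by omega)
    · rw [hdeg _ e] at hd; exact key _ _ (dvd_mul_of_dvd_right hd 2) hpq (by omega)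
    · rw [hdeg _ e] at hd; exact key _ _ hpq (dvd_mul_of_dvd_right hd 2) (by omega)
  · haveI := charP_two_of_not_odd hodd
    rcases deg_even T χ with ⟨-, e⟩ | ⟨-, e⟩ | ⟨-, e⟩ | ⟨-, e⟩
    · rw [hdeg _ e] at hd; exact hp.not_dvd_one hd
    · exact h e
    · rw [hdeg _ e] at hd; exact key _ _ hd hpq rfl
    · rw [hdeg _ e] at hd; exact key _ _ hpq hd (by omega)

theorem ratio_one {χ : IrrCharacter SL} (hd : ¬ p ∣ charDegree (χ : SL → ℂ)) {u : SL} (hu : u ^ p = 1) :
    MemLocalIdeal M ((χ : SL → ℂ) u / (χ : SL → ℂ) 1 - 1) := by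
  have h1 := apply_one_ne_zero χ.2
  rw [div_sub_one h1, apply_one (isCharacter_of_irr χ.2), div_eq_mul_inv]
  refine memLocalIdeal_mul_right hM ?_ (memLocalRing_natCast_inv hM hd)
  rw [← apply_one (isCharacter_of_irr χ.2)]
  exact apply_sub_degree_mem hM (isCharacter_of_irr χ.2) (k := 1) (by rw [pow_one]; exact hu)

/-- Two characters of degree prime to `p` agreeing in central sign lie in one block. -/
theorem sameBlock_of_sign {χ ψ : IrrCharacter SL} (hχ : ¬ p ∣ charDegree (χ : SL → ℂ))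
    (hψ : ¬ p ∣ charDegree (ψ : SL → ℂ))
    (hs : (χ : SL → ℂ) (-1) / (χ : SL → ℂ) 1 = (ψ : SL → ℂ) (-1) / (ψ : SL → ℂ) 1) :
    SameBlock M (χ : SL → ℂ) (ψ : SL → ℂ) := by
  intro g
  have c1 := apply_one_ne_zero χ.2
  have p1 := apply_one_ne_zero ψ.2
  by_cases hg : g ∈ Subgroup.center SL
  · have : centralChar (χ : SL → ℂ) g = centralChar (ψ : SL → ℂ) g := by
      rcases (CfsgLib.SL2.mem_center_iff g).mp hg with rfl | rfl
      · simp [centralChar, c1, p1]
      · simp only [centralChar, mul_div_assoc, hs]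
    rw [this, sub_self]; exact memLocalIdeal_zero hM
  by_cases hd : p ∣ Nat.card (Subgroup.centralizer ({g} : Set SL))
  · have ht := tr_sq_of_dvd hg hd
    obtain ⟨z, u, hz, hu, rfl⟩ : ∃ z u : SL, z ∈ Subgroup.center SL ∧ u ^ p = 1 ∧ g = z * u := by
      have : (tr g - 2) * (tr g + 2) = 0 := by linear_combination ht
      rcases mul_eq_zero.1 this with h | h
      · exact ⟨1, g, Subgroup.one_mem _, pow_p_of_tr (by linear_combination h), (one_mul g).symm⟩
      · refine ⟨-1, -g, CfsgLib.SL2.neg_one_mem_center, pow_p_of_tr (by rw [tr_neg]; linear_combination -h), ?_⟩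
        apply ext2 <;> simp [mul00, mul01, mul10, mul11]
    have hratio : ∀ φ : IrrCharacter SL, centralChar (φ : SL → ℂ) (z * u) =
        ((Subgroup.centralizer ({z * u} : Set SL)).index : ℂ) *
          ((φ : SL → ℂ) z / (φ : SL → ℂ) 1) * ((φ : SL → ℂ) u / (φ : SL → ℂ) 1) := fun φ => by
      have h0 := apply_one_ne_zero φ.2
      rw [centralChar]
      field_simp
      linear_combination ((Subgroup.centralizer ({z * u} : Set SL)).index : ℂ) * center_mul φ.2 hz u
    have hzr : (χ : SL → ℂ) z / (χ : SL → ℂ) 1 = (ψ : SL → ℂ) z / (ψ : SL → ℂ) 1 := by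
      rcases (CfsgLib.SL2.mem_center_iff z).mp hz with rfl | rfl
      · rw [div_self c1, div_self p1]
      · exact hs
    have hzl : MemLocalRing M ((ψ : SL → ℂ) z / (ψ : SL → ℂ) 1) := by
      rw [apply_one (isCharacter_of_irr ψ.2), div_eq_mul_inv]
      exact memLocalRing_mul hM (memLocalRing_apply hM ψ z) (memLocalRing_natCast_inv hM hψ)
    rw [hratio, hratio, hzr, ← mul_sub]
    refine memLocalIdeal_mul_left hM (memLocalRing_mul hM (memLocalRing_natCast hM _) hzl) ?_
    simpa using memLocalIdeal_sub hM (ratio_one hM hχ hu) (ratio_one hM hψ hu)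
  · have hi : p ∣ (Subgroup.centralizer ({g} : Set SL)).index := by
      have hpG : p ∣ Nat.card SL := by
        obtain ⟨n, -, hn⟩ := FiniteField.card F p
        rw [card_SL2, hn]; exact dvd_mul_of_dvd_left (dvd_pow_self p n.ne_zero) _
      rw [← (Subgroup.centralizer ({g} : Set SL)).card_mul_index] at hpG
      exact (hM.1.dvd_mul.1 hpG).resolve_left hd
    have hmem : ∀ φ : IrrCharacter SL, ¬ p ∣ charDegree (φ : SL → ℂ) → MemLocalIdeal M (centralChar (φ : SL → ℂ) g) := by
      intro φ hφ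
      rw [centralChar, apply_one (isCharacter_of_irr φ.2), div_eq_mul_inv, mul_assoc]
      exact memLocalIdeal_mul_right hM ((memLocalIdeal_natCast_iff hM _).2 hi)
        (memLocalRing_mul hM (memLocalRing_apply hM φ g) (memLocalRing_natCast_inv hM hφ))
    exact memLocalIdeal_sub hM (hmem χ hχ) (hmem ψ hψ)

/-- The Steinberg character is alone in its block. -/
theorem not_sameBlock_St {χ ψ : IrrCharacter SL} (hχ : (χ : SL → ℂ) = St) (hψ : ¬ p ∣ charDegree (ψ : SL → ℂ)) :
    ¬ SameBlock M (χ : SL → ℂ) (ψ : SL → ℂ) := by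
  intro h
  have hp : p.Prime := hM.1
  have h1 := h (upperU 1)
  have h0 : centralChar (χ : SL → ℂ) (upperU 1) = 0 := by
    rw [centralChar, hχ, St_upperU one_ne_zero, mul_zero, zero_div]
  set i := (Subgroup.centralizer ({(upperU 1 : SL)} : Set SL)).index with hi
  have hnd : ¬ p ∣ i := by
    have hU : (upperHom (F := F)).range ≤ Subgroup.centralizer ({(upperU 1 : SL)} : Set SL) := by
      rintro x ⟨t, rfl⟩
      rw [Subgroup.mem_centralizer_singleton_iff]
      show upperU t.toAdd * upperU 1 = upperU 1 * upperU t.toAdd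
      rw [← upperU_add, ← upperU_add, add_comm]
    have hcard : Nat.card (upperHom (F := F)).range = Fintype.card F := by
      rw [← Nat.card_congr (MonoidHom.ofInjective (f := upperHom (F := F))
        fun a b e => Multiplicative.toAdd.injective (upperU_injective e)).toEquiv]
      simp
    intro hdvd
    have h2 := mul_dvd_mul (Subgroup.card_dvd_of_le hU) hdvd
    rw [hcard, Subgroup.card_mul_index, card_eq_pow (p := p) (F := F), ← pow_succ] at h2
    exact Nat.pow_succ_factorization_not_dvd Nat.card_pos.ne' hp h2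
  have hr := ratio_one hM hψ (upperU_pow_p (1 : F))
  rw [h0, zero_sub, centralChar, mul_div_assoc] at h1
  have h2 : MemLocalIdeal M (i : ℂ) := by
    have := memLocalIdeal_sub hM (memLocalIdeal_neg h1) (memLocalIdeal_mul_left hM (memLocalRing_natCast hM i) hr)
    convert this using 1
    ring
  exact hnd ((memLocalIdeal_natCast_iff hM i).1 h2)

/-- A block with a character of degree prime to `p` has the Sylow subgroups as defect groups. -/
theorem isDefectGroup_sylow {G : Type*} [Group G] [Finite G] {B : Set (IrrCharacter G)} (hB : IsPBlock M B)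
    {χ : IrrCharacter G} (hχ : χ ∈ B) (hd : ¬ p ∣ charDegree (χ : G → ℂ)) (P : Sylow p G) :
    IsDefectGroup p M B (P : Subgroup G) := by
  classical
  haveI := Fintype.ofFinite G
  obtain ⟨g, hg⟩ := exists_defectClass hM hB
  obtain ⟨Q⟩ : Nonempty (Sylow p (Subgroup.centralizer ({g} : Set G))) := inferInstance
  have hdef : blockDefect p B = (Nat.card G).factorization p := by
    have h0 : sInf ((fun ρ : IrrCharacter G => (charDegree (ρ : G → ℂ)).factorization p) '' B) = 0 :=
      Nat.sInf_eq_zero.2 (Or.inl ⟨χ, hχ, Nat.factorization_eq_zero_of_not_dvd hd⟩)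
    rw [blockDefect, h0, Nat.sub_zero]
  set D := (Q : Subgroup (Subgroup.centralizer ({g} : Set G))).map (Subgroup.centralizer ({g} : Set G)).subtype
    with hD
  have hcard : Nat.card D = p ^ (Nat.card G).factorization p :=
    (card_defectGroup hM hB ⟨g, hg, Q, rfl⟩).trans (by rw [hdef])
  let D' : Sylow p G := Sylow.ofCard D hcard
  obtain ⟨c, hc⟩ := MulAction.exists_smul_eq G D' P
  have hg' := isDefectGroup_conj hM hB hg c
  have hPle : (P : Subgroup G) ≤ Subgroup.centralizer ({c * g * c⁻¹} : Set G) := by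
    rw [← hc, Sylow.coe_subgroup_smul]
    rintro _ ⟨y, hy, rfl⟩
    have hy' : y ∈ D := hy
    have hyc := Subgroup.mem_centralizer_singleton_iff.1 (Subgroup.map_subtype_le _ hy')
    rw [Subgroup.mem_centralizer_singleton_iff]
    simp only [MulDistribMulAction.toMonoidEnd_apply, MulDistribMulAction.toMonoidHom_apply,
      MulAut.smul_def, MulAut.conj_apply]
    have hyc' : g * y = y * g := hyc.symm
    calc c * y * c⁻¹ * (c * g * c⁻¹) = c * (y * g) * c⁻¹ := by group
      _ = c * (g * y) * c⁻¹ := by rw [hyc']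
      _ = _ := by group
  refine ⟨_, hg', P.subtype hPle, ?_⟩
  rw [Sylow.coe_subtype, Subgroup.subgroupOf_map_subtype, inf_eq_left.2 hPle]

/-- The blocks. -/
theorem blocks (hp2 : p ≠ 2) :
    let BS : Set (IrrCharacter SL) := {χ | (χ : SL → ℂ) 1 = (Fintype.card F : ℂ)}
    let B0 : Set (IrrCharacter SL) := {χ | (χ : SL → ℂ) (-1) = (χ : SL → ℂ) 1 ∧ (χ : SL → ℂ) 1 ≠ (Fintype.card F : ℂ)}
    let B1 : Set (IrrCharacter SL) := {χ | (χ : SL → ℂ) (-1) = -(χ : SL → ℂ) 1}
    (∀ B : Set (IrrCharacter SL), IsPBlock M B ↔ B = BS ∨ B = B0 ∨ B = B1) ∧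
      Nat.card {B : Set (IrrCharacter SL) // IsPBlock M B} = 3 ∧
      ∀ P : Sylow p SL, IsDefectGroup p M B0 (P : Subgroup SL) ∧ IsDefectGroup p M B1 (P : Subgroup SL) := by
  classical
  intro BS B0 B1
  have hp : p.Prime := hM.1
  obtain ⟨n, -, hn⟩ := FiniteField.card F p
  have hodd : Odd (Fintype.card F) := by rw [hn]; exact (hp.odd_of_ne_two hp2).pow
  have h2 : (2 : F) ≠ 0 := (eps_odd hodd).1
  have hne : (-1 : SL) ≠ 1 := by
    intro h
    have := congrArg (fun g : SL => g.1 0 0) h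
    simp at this
    exact h2 (by linear_combination -this)
  have hq1 : (Fintype.card F : ℂ) ≠ 1 := by exact_mod_cast (Fintype.one_lt_card (α := F)).ne'
  have hsign : ∀ χ : IrrCharacter SL, (χ : SL → ℂ) (-1) = (χ : SL → ℂ) 1 ∨ (χ : SL → ℂ) (-1) = -(χ : SL → ℂ) 1 := by
    intro χ
    have h := center_mul χ.2 (z := (-1 : SL)) CfsgLib.SL2.neg_one_mem_center (-1)
    rw [show (-1 : SL) * -1 = 1 by apply ext2 <;> simp [mul00, mul01, mul10, mul11]] at h
    exact mul_self_eq_mul_self_iff.1 h.symm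
  let χS : IrrCharacter SL := ⟨St, isIrr_St⟩
  have hStneg : (St : SL → ℂ) (-1) = (Fintype.card F : ℂ) := by
    simp [St, Rf_scalar (1 : MulChar F ℂ) (-1) (by simp) (by simp) (by simp), MulChar.one_apply (isUnit_one.neg : IsUnit (-1 : F))]
  have hB1deg : ∀ χ ∈ B1, (χ : SL → ℂ) 1 ≠ (Fintype.card F : ℂ) := by
    intro χ hχ e
    have hχ' : (χ : SL → ℂ) (-1) = -(χ : SL → ℂ) 1 := hχ
    rw [eq_St_of_deg χ.2 e, hStneg, St_one] at hχ'
    have hq : (Fintype.card F : ℂ) ≠ 0 := Nat.cast_ne_zero.2 Fintype.card_ne_zero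
    exact hq (by linear_combination hχ' / 2)
  obtain ⟨χ1, hχ1⟩ : B1.Nonempty := by
    by_contra hcon
    haveI := Fintype.ofFinite (IrrCharacter SL)
    have h := sum_mul_degree hne
    have e : ∀ χ : IrrCharacter SL, (charDegree (χ : SL → ℂ) : ℂ) * (χ : SL → ℂ) (-1) =
        ((charDegree (χ : SL → ℂ) ^ 2 : ℕ) : ℂ) := fun χ => by
      rw [(hsign χ).resolve_right fun h => hcon ⟨χ, h⟩, apply_one (isCharacter_of_irr χ.2), sq, Nat.cast_mul]
    rw [Finset.sum_congr rfl (fun χ _ => e χ), ← Nat.cast_sum, Nat.cast_eq_zero, sum_sq_degree] at h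
    exact Nat.card_pos.ne' h
  have hone : (oneChar : IrrCharacter SL) ∈ B0 := ⟨rfl, fun e => hq1 e.symm⟩
  have hsame : ∀ χ ψ : IrrCharacter SL, SameBlock M (χ : SL → ℂ) (ψ : SL → ℂ) ↔
      ((χ ∈ BS ∧ ψ ∈ BS) ∨ (χ ∈ B0 ∧ ψ ∈ B0) ∨ (χ ∈ B1 ∧ ψ ∈ B1)) := by
    intro χ ψ
    constructor
    · intro h
      by_cases hS : (χ : SL → ℂ) 1 = (Fintype.card F : ℂ) <;> by_cases hS' : (ψ : SL → ℂ) 1 = (Fintype.card F : ℂ)
      · exact Or.inl ⟨hS, hS'⟩
      · exact absurd h (not_sameBlock_St hM (eq_St_of_deg χ.2 hS) (not_dvd_of_ne hM hS'))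
      · exact absurd (sameBlock_symm h) (not_sameBlock_St hM (eq_St_of_deg ψ.2 hS') (not_dvd_of_ne hM hS))
      · have c1 := apply_one_ne_zero χ.2
        have p1 := apply_one_ne_zero ψ.2
        have hc : (Subgroup.centralizer ({(-1 : SL)} : Set SL)).index = 1 := by
          rw [Subgroup.index_eq_one, eq_top_iff]
          intro x _
          rw [Subgroup.mem_centralizer_singleton_iff]
          exact (Subgroup.mem_center_iff.1 CfsgLib.SL2.neg_one_mem_center x).symm ▸ rfl
        have h' := h (-1)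
        rw [centralChar, centralChar, hc, Nat.cast_one, one_mul, one_mul] at h'
        have h2M : ¬ MemLocalIdeal M (2 : ℂ) := by
          intro h2'
          have : p ∣ 2 := (memLocalIdeal_natCast_iff hM 2).1 (by exact_mod_cast h2')
          exact hp2 ((Nat.prime_dvd_prime_iff_eq hp Nat.prime_two).1 this)
        rcases hsign χ with e | e <;> rcases hsign ψ with e' | e'
        · exact Or.inr (Or.inl ⟨⟨e, hS⟩, ⟨e', hS'⟩⟩)
        · rw [e, e', div_self c1, neg_div, div_self p1, sub_neg_eq_add, one_add_one_eq_two] at h'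
          exact absurd h' h2M
        · rw [e, e', div_self p1, neg_div, div_self c1] at h'
          exact absurd (by simpa [neg_add_rev, one_add_one_eq_two] using memLocalIdeal_neg h') h2M
        · exact Or.inr (Or.inr ⟨e, e'⟩)
    · rintro (⟨a, b⟩ | ⟨a, b⟩ | ⟨a, b⟩)
      · rw [show χ = ψ from Subtype.ext ((eq_St_of_deg χ.2 a).trans (eq_St_of_deg ψ.2 b).symm)]
        exact sameBlock_refl hM _
      · refine sameBlock_of_sign hM (not_dvd_of_ne hM a.2) (not_dvd_of_ne hM b.2) ?_
        rw [a.1, b.1, div_self (apply_one_ne_zero χ.2), div_self (apply_one_ne_zero ψ.2)]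
      · refine sameBlock_of_sign hM (not_dvd_of_ne hM (hB1deg χ a)) (not_dvd_of_ne hM (hB1deg ψ b)) ?_
        rw [show (χ : SL → ℂ) (-1) = _ from a, show (ψ : SL → ℂ) (-1) = _ from b, neg_div, neg_div,
          div_self (apply_one_ne_zero χ.2), div_self (apply_one_ne_zero ψ.2)]
  have d1 : ∀ x, x ∈ BS → x ∉ B0 := fun x h h' => h'.2 h
  have d2 : ∀ x, x ∈ BS → x ∉ B1 := fun x h h' => hB1deg x h' h
  have d3 : ∀ x, x ∈ B0 → x ∉ B1 := fun x h h' => by
    have a : (x : SL → ℂ) (-1) = -(x : SL → ℂ) 1 := h'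
    rw [h.1] at a
    exact apply_one_ne_zero x.2 (by linear_combination a / 2)
  have hS : χS ∈ BS := St_one
  have bl : ∀ χ : IrrCharacter SL, (χ ∈ BS → blockOf M (χ : SL → ℂ) = BS) ∧ (χ ∈ B0 → blockOf M (χ : SL → ℂ) = B0) ∧
      (χ ∈ B1 → blockOf M (χ : SL → ℂ) = B1) := by
    intro χ
    refine ⟨fun h => Set.ext fun ψ => (hsame χ ψ).trans ?_, fun h => Set.ext fun ψ => (hsame χ ψ).trans ?_,
      fun h => Set.ext fun ψ => (hsame χ ψ).trans ?_⟩
    · have := d1 χ h; have := d2 χ h; tauto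
    · have := d3 χ h; have : χ ∉ BS := fun k => d1 χ k h; tauto
    · have : χ ∉ B0 := fun k => d3 χ k h; have : χ ∉ BS := fun k => d2 χ k h; tauto
  have hblocks : ∀ B : Set (IrrCharacter SL), IsPBlock M B ↔ B = BS ∨ B = B0 ∨ B = B1 := by
    intro B
    constructor
    · rintro ⟨χ, rfl⟩
      by_cases hSc : (χ : SL → ℂ) 1 = (Fintype.card F : ℂ)
      · exact Or.inl ((bl χ).1 hSc)
      · rcases hsign χ with e | e
        · exact Or.inr (Or.inl ((bl χ).2.1 ⟨e, hSc⟩))
        · exact Or.inr (Or.inr ((bl χ).2.2 e))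
    · rintro (rfl | rfl | rfl)
      · exact ⟨χS, ((bl χS).1 hS).symm⟩
      · exact ⟨oneChar, ((bl oneChar).2.1 hone).symm⟩
      · exact ⟨χ1, ((bl χ1).2.2 hχ1).symm⟩
  refine ⟨hblocks, ?_, fun P => ⟨?_, ?_⟩⟩
  · have n1 : BS ≠ B0 := fun e => d1 _ hS (e ▸ hS)
    have n2 : BS ≠ B1 := fun e => d2 _ hS (e ▸ hS)
    have n3 : B0 ≠ B1 := fun e => d3 _ hone (e ▸ hone)
    rw [Nat.card_congr (Equiv.subtypeEquivRight (q := fun B => B ∈ ({BS, B0, B1} : Set (Set (IrrCharacter SL))))
      fun B => by simpa using hblocks B), Nat.card_coe_set_eq]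
    exact Set.ncard_eq_three.2 ⟨_, _, _, n1, n2, n3, rfl⟩
  · exact isDefectGroup_sylow hM ((hblocks B0).2 (Or.inr (Or.inl rfl))) hone (not_dvd_of_ne hM hone.2) P
  · exact isDefectGroup_sylow hM ((hblocks B1).2 (Or.inr (Or.inr rfl))) hχ1 (not_dvd_of_ne hM (hB1deg χ1 hχ1)) P

end CfsgLib.SL2Char
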